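import Cfsg.Agent.Chars.Basic
import Cfsg.Agent.Chars.Induced.Ito
import Cfsg.Agent.Chars.Induced.Gallagher
import Cfsg.Agent.Chars.GaloisHom.Basic
import Mathlib.RingTheory.IntegralDomain

/-!
# A `p`-element acting on a normal subgroup of order prime to `p` in small degree

If `G = K ⟨x⟩` with `K` normal of order prime to `p`, `x` a `p`-element, and `χ` is an irreducible
character with `χ(1) + 1 < p`, then the commutators of `x` are in the kernel of `χ`.
-/

set_option autoImplicit false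

namespace CfsgLib.Chars.CoprimeCentral

open Cfsg CfsgLib.Chars
open scoped commutatorElement

/-- A function on a finite commutative group of characters twisted by an automorphism of order at
least `p - 1` and of weight less than `p - 1` is concentrated at one point. -/
theorem concentrated {A : Type*} [CommGroup A] [Fintype A] {p a d k : ℕ} (hp : p.Prime)
    (hexp : ∀ l : A, l ^ (p ^ a) = 1) (hd : d + 1 < p) (hd0 : 0 < d)
    (hk : orderOf (k : ZMod p) = p - 1) (M : A → ℕ) (hM : ∑ l : A, M l = d) (c : A)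
    (hc : ∀ l : A, M (l ^ k * c) = M l) : ∃ ν : A, ∀ l : A, M l ≠ 0 → l = ν := by
  classical
  haveI : Fact p.Prime := ⟨hp⟩
  have hpd : Nat.Coprime (p ^ a) d :=
    ((hp.coprime_iff_not_dvd).2 fun h => by have := Nat.le_of_dvd hd0 h; omega).pow_left a
  have hpk : Nat.Coprime (p ^ a) k := by
    refine ((hp.coprime_iff_not_dvd).2 fun h => ?_).pow_left a
    rw [← ZMod.natCast_eq_zero_iff] at h
    rw [h, orderOf_zero] at hk
    have := hp.two_le
    omega
  have hcard : ∀ l : A, orderOf l ∣ p ^ a := fun l => orderOf_dvd_of_pow_eq_one (hexp l)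
  have hinj : Function.Injective (fun l : A => l ^ k) := by
    intro x y hxy
    have h1 : (x / y) ^ k = 1 := by rw [div_pow, div_eq_one]; exact hxy
    have h2 : orderOf (x / y) = 1 :=
      Nat.eq_one_of_dvd_coprimes hpk (hcard _) (orderOf_dvd_of_pow_eq_one h1)
    rwa [orderOf_eq_one_iff, div_eq_one] at h2
  let T : A ≃ A := Equiv.ofBijective (fun l => l ^ k * c)
    ((Finite.injective_iff_bijective).1 fun x y h => hinj (mul_right_cancel h))
  set P₀ := ∏ l : A, l ^ M l with hP₀
  obtain ⟨e, he⟩ := exists_pow_eq_self_of_coprime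
    ((Nat.Coprime.coprime_dvd_left (hcard P₀) hpd).symm)
  set ν := P₀ ^ e with hν
  have hνd : ν ^ d = P₀ := by rw [hν, ← pow_mul, mul_comm, pow_mul, he]
  have hP : P₀ = P₀ ^ k * c ^ d := by
    calc P₀ = ∏ l : A, (T l) ^ M (T l) := (T.prod_comp (fun l => l ^ M l)).symm
      _ = ∏ l : A, (l ^ k * c) ^ M l := Finset.prod_congr rfl fun l _ => by
          show (l ^ k * c) ^ M (l ^ k * c) = _
          rw [hc]
      _ = _ := by
          simp only [mul_pow, Finset.prod_mul_distrib, Finset.prod_pow_eq_pow_sum, hM, hP₀,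
            ← Finset.prod_pow, ← pow_mul, mul_comm k]
  have hνc : ν ^ k * c = ν := by
    rw [← div_eq_one]
    refine orderOf_eq_one_iff.1 (Nat.eq_one_of_dvd_coprimes hpd (hcard _)
      (orderOf_dvd_of_pow_eq_one ?_))
    rw [div_pow, div_eq_one, mul_pow, ← pow_mul, mul_comm k, pow_mul, hνd, ← hP]
  refine ⟨ν, fun l hl => ?_⟩
  by_contra hne
  set u := l / ν with hu
  have hu1 : u ≠ 1 := fun h => hne (div_eq_one.1 h)
  have horbit : ∀ i : ℕ, M (u ^ (k ^ i) * ν) = M l := by
    intro i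
    induction i with
    | zero => rw [pow_zero, pow_one, hu, div_mul_cancel]
    | succ i ih =>
      rw [← ih, ← hc (u ^ k ^ i * ν), mul_pow, ← pow_mul, ← pow_succ, mul_assoc, hνc]
  obtain ⟨b, -, hb⟩ := (Nat.dvd_prime_pow hp).1 (hcard u)
  have hb0 : b ≠ 0 := fun h => hu1 (orderOf_eq_one_iff.1 (by rw [hb, h, pow_zero]))
  have hdist : Set.InjOn (fun i : ℕ => u ^ (k ^ i) * ν) (Finset.range (p - 1)) := by
    intro i hi j hj hij
    have h1 : k ^ i ≡ k ^ j [MOD p] :=
      (pow_eq_pow_iff_modEq.1 (mul_right_cancel hij)).of_dvd (hb ▸ dvd_pow_self p hb0)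
    rw [← ZMod.natCast_eq_natCast_iff, Nat.cast_pow, Nat.cast_pow] at h1
    rw [Finset.coe_range, Set.mem_Iio, ← hk] at hi hj
    exact pow_injOn_Iio_orderOf hi hj h1
  have hle : (Finset.range (p - 1)).card * 1 ≤ d := by
    rw [← hM, mul_one, ← Finset.card_image_of_injOn hdist, Finset.card_eq_sum_ones]
    refine le_trans (Finset.sum_le_sum (g := M) fun y hy => ?_)
      (Finset.sum_le_sum_of_subset (Finset.subset_univ _))
    obtain ⟨i, -, rfl⟩ := Finset.mem_image.1 hy
    rw [horbit]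
    exact Nat.pos_of_ne_zero hl
  rw [Finset.card_range] at hle
  omega

variable {G : Type*} [Group G] [Finite G]

open CfsgLib.Chars.Induced in
/-- Commutators with `x` lie in the kernel of a character of degree less than `p - 1`. -/
theorem map_commutator_eq (K : Subgroup G) [K.Normal] {p : ℕ} (hp : p.Prime)
    (hK : ¬ p ∣ Nat.card K) (x : G) {a : ℕ} (hx : orderOf x = p ^ a)
    (htop : K ⊔ Subgroup.zpowers x = ⊤) (χ : IrrCharacter G)
    (hd : charDegree (χ : G → ℂ) + 1 < p) (g : G) :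
    (χ : G → ℂ) ⁅x, g⁆ = (χ : G → ℂ) 1 := by
  classical
  haveI := Fintype.ofFinite G
  haveI := Fintype.ofFinite K
  haveI : Fact p.Prime := ⟨hp⟩
  haveI : Fintype (Subgroup.zpowers x) := Fintype.ofFinite _
  set d := charDegree (χ : G → ℂ) with hdd
  have hd0 : 0 < d := charDegree_pos χ
  have hd1 : (χ : G → ℂ) 1 = (d : ℂ) := (coe_charDegree χ).symm
  -- the index is a power of `p`
  have hidx : K.index ∣ p ^ a := by
    rw [← hx, ← Nat.card_zpowers, Subgroup.index_eq_card]
    refine Subgroup.card_dvd_of_surjective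
      ((QuotientGroup.mk' K).comp (Subgroup.zpowers x).subtype) (MonoidHom.range_eq_top.1 ?_)
    rw [MonoidHom.range_comp, Subgroup.range_subtype]
    have h1 : (K ⊔ Subgroup.zpowers x).map (QuotientGroup.mk' K) = ⊤ := by
      rw [htop, ← MonoidHom.range_eq_map, QuotientGroup.range_mk']
    rwa [Subgroup.map_sup, QuotientGroup.map_mk'_self, bot_sup_eq] at h1
  have hcop : Nat.Coprime d (p ^ a) :=
    ((hp.coprime_iff_not_dvd).2 fun h => by have := Nat.le_of_dvd hd0 h; omega).symm.pow_right a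
  -- the restriction is irreducible
  obtain ⟨θ, hθ⟩ := exists_mult_restrict_ne_zero (N := K) χ
  have hres : IsCharacter K (fun n : K => (χ : G → ℂ) n) := isCharacter_restrict (isCharacter_coe χ) K
  obtain ⟨φ, hφ, hadd⟩ := exists_add_of_classInner_ne_zero hres θ ((mult_ne_zero_iff hres θ).1 hθ)
  obtain ⟨b, hb⟩ := exists_natCast_map_one hφ
  have hθeq : ∀ n : K, (χ : G → ℂ) n = (θ : K → ℂ) n := by
    have h1 := congrFun hadd 1
    rw [Pi.add_apply, OneMemClass.coe_one, hd1, ← coe_charDegree θ, hb] at h1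
    have h1' : d = charDegree (θ : K → ℂ) + b := by exact_mod_cast h1
    have h2 : d ∣ charDegree (θ : K → ℂ) :=
      (hcop.coprime_dvd_right hidx).dvd_of_dvd_mul_right (charDegree_dvd_mul_index χ θ hθ)
    have h3 := Nat.le_of_dvd (charDegree_pos θ) h2
    have hb0 : b = 0 := by omega
    intro n
    rw [congrFun hadd n, eq_zero_of_map_one_eq_zero hφ (by rw [hb, hb0, Nat.cast_zero])]
    simp
  -- the Galois conjugate
  obtain ⟨e, r, hr, hm⟩ :=
    Nat.exists_eq_pow_mul_and_not_dvd (Nat.card_pos (α := G)).ne' p hp.ne_one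
  rcases Nat.eq_zero_or_pos a with ha0 | ha0
  · rw [ha0, pow_zero, orderOf_eq_one_iff] at hx
    simp [hx]
  have he0 : e ≠ 0 := by
    intro he
    rw [he, pow_zero, one_mul] at hm
    exact hr (hm ▸ (dvd_pow_self p ha0.ne').trans (hx ▸ orderOf_dvd_natCard x))
  obtain ⟨u, hu⟩ := IsCyclic.exists_generator (α := (ZMod p)ˣ)
  obtain ⟨k, hk1, hk2⟩ :=
    Nat.chineseRemainder (((hp.coprime_iff_not_dvd).2 hr).pow_left e) (u : ZMod p).val 1
  have hkp : (k : ZMod p) = u := by
    rw [(ZMod.natCast_eq_natCast_iff k _ p).2 (hk1.of_dvd (dvd_pow_self p he0))]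
    exact ZMod.natCast_zmod_val _
  have hkord : orderOf (k : ZMod p) = p - 1 := by
    rw [hkp, orderOf_units, orderOf_eq_card_of_forall_mem_zpowers hu, Nat.card_eq_fintype_card,
      ZMod.card_units]
  have hk : k.Coprime (Nat.card G) := by
    rw [hm]
    refine Nat.Coprime.mul_right (Nat.Coprime.pow_right e ?_) ?_
    · refine ((hp.coprime_iff_not_dvd).2 fun h => u.ne_zero ?_).symm
      rw [← hkp, ZMod.natCast_eq_zero_iff]
      exact h
    · show Nat.gcd k r = 1
      rw [hk2.gcd_eq, Nat.gcd_one_left]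
  obtain ⟨σ, hσ⟩ := GaloisHom.exists_ringHom_char (Nat.card_pos (α := G)) hk
  let χ' : IrrCharacter G := ⟨fun g => σ ((χ : G → ℂ) g), isIrrCharacter_ringHom χ.2 σ⟩
  have hχ' : ∀ g : G, (χ' : G → ℂ) g = (χ : G → ℂ) (g ^ k) := fun g =>
    hσ (isCharacter_coe χ) g (orderOf_dvd_natCard g)
  have hχ'K : ∀ n : K, (χ' : G → ℂ) n = (θ : K → ℂ) n := by
    intro n
    rw [hχ', ← hθeq]
    refine congrArg _ ?_
    conv_rhs => rw [← pow_one (n : G)]
    have hnp : (orderOf (n : G)).Coprime (p ^ e) :=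
      ((hp.coprime_iff_not_dvd).2 fun h =>
        hK (h.trans (K.orderOf_dvd_natCard n.2))).symm.pow_right e
    exact pow_eq_pow_iff_modEq.2
      (hk2.of_dvd (hnp.dvd_of_dvd_mul_left (hm ▸ orderOf_dvd_natCard (n : G))))
  obtain ⟨β, hβ⟩ := gallagher_exists χ θ hθeq χ' (by
    rw [show (fun n : K => (χ' : G → ℂ) n) = (θ : K → ℂ) from funext hχ'K,
      mult_ne_zero_iff (isCharacter_coe θ), classInner_irr_self]
    exact one_ne_zero)
  have hβ1 : (β : G ⧸ K → ℂ) 1 = 1 := by
    have h1 := congrFun hβ 1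
    rw [QuotientGroup.mk_one, hχ' 1, one_pow] at h1
    exact (mul_eq_left₀ (map_one_ne_zero χ)).1 h1.symm
  obtain ⟨lβ, hlβ⟩ := exists_linChar_eq β hβ1
  -- multiplicities on the cyclic group
  set C := Subgroup.zpowers x with hC
  let lam : C →* ℂˣ := lβ.comp ((QuotientGroup.mk' K).comp C.subtype)
  haveI : Fintype (C →* ℂˣ) := Fintype.ofFinite _
  let E : (C →* ℂˣ) ≃ IrrCharacter C := Equiv.ofBijective (linChar (G := C))
    ⟨linChar_injective, fun ψ => exists_linChar_eq ψ (map_one_eq_one_of_isMulCommutative ψ)⟩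
  obtain ⟨c, hc, -⟩ := exists_nat_coeff (isCharacter_restrict (isCharacter_coe χ) C)
  let M : (C →* ℂˣ) → ℕ := fun l => c (E l)
  have hsum : ∀ y : C, (χ : G → ℂ) y = ∑ l : C →* ℂˣ, (M l : ℂ) * (l y : ℂ) := by
    intro y
    have h1 := congrFun hc y
    simp only [Finset.sum_apply, Pi.smul_apply, smul_eq_mul] at h1
    rw [h1, ← E.sum_comp]
    exact Finset.sum_congr rfl fun l _ => rfl
  have hMd : ∑ l : C →* ℂˣ, M l = d := by
    have h1 := hsum 1
    simp only [OneMemClass.coe_one, hd1, map_one, Units.val_one, mul_one] at h1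
    exact_mod_cast h1.symm
  have hexp : ∀ l : C →* ℂˣ, l ^ (p ^ a) = 1 := fun l => MonoidHom.ext fun y => by
    rw [MonoidHom.pow_apply, MonoidHom.one_apply, ← map_pow, ← hx, ← Nat.card_zpowers,
      pow_card_eq_one', map_one]
  have hpk : Nat.Coprime k (p ^ a) := by
    refine ((hp.coprime_iff_not_dvd).2 fun h => u.ne_zero ?_).symm.pow_right a
    rw [← hkp, ZMod.natCast_eq_zero_iff]
    exact h
  have hinj : Function.Injective (fun l : C →* ℂˣ => l ^ k) := by
    intro l l' hll
    obtain ⟨j, hj⟩ : ∃ j, k * j ≡ 1 [MOD p ^ a] := by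
      refine ⟨k ^ (Nat.totient (p ^ a) - 1), ?_⟩
      rw [← pow_succ', Nat.sub_add_cancel (Nat.totient_pos.2 (pow_pos hp.pos a))]
      exact Nat.ModEq.pow_totient hpk
    have h1 : ∀ m : C →* ℂˣ, (m ^ k) ^ j = m := fun m => MonoidHom.ext fun y => by
      have hy : m y ^ (p ^ a) = 1 := by rw [← MonoidHom.pow_apply, hexp, MonoidHom.one_apply]
      rw [MonoidHom.pow_apply, MonoidHom.pow_apply, ← pow_mul]
      exact (pow_eq_pow_iff_modEq.2
        (hj.of_dvd (orderOf_dvd_of_pow_eq_one hy))).trans (pow_one (m y))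
    rw [← h1 l, ← h1 l']
    exact congrArg (fun m : C →* ℂˣ => m ^ j) hll
  have hrel : ∀ l : C →* ℂˣ, M (l ^ k * lam⁻¹) = M l := by
    intro l
    let Ek : (C →* ℂˣ) ≃ (C →* ℂˣ) :=
      Equiv.ofBijective _ ((Finite.injective_iff_bijective).1 hinj)
    have h1 : ∑ l : C →* ℂˣ, (M (Ek.symm l) : ℂ) • (linChar l : C → ℂ) =
        ∑ l : C →* ℂˣ, (M (l * lam⁻¹) : ℂ) • (linChar l : C → ℂ) := by
      funext y
      simp only [Finset.sum_apply, Pi.smul_apply, smul_eq_mul, linChar_apply]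
      have hl : (χ' : G → ℂ) y = ∑ l : C →* ℂˣ, (M (Ek.symm l) : ℂ) * (l y : ℂ) := by
        rw [hχ', ← SubgroupClass.coe_pow, hsum]
        refine Fintype.sum_equiv Ek _ _ fun m => ?_
        rw [Ek.symm_apply_apply, map_pow]
        rfl
      have hr' : (χ' : G → ℂ) y = ∑ l : C →* ℂˣ, (M (l * lam⁻¹) : ℂ) * (l y : ℂ) := by
        rw [congrFun hβ (y : G), hsum, Finset.sum_mul]
        refine Fintype.sum_equiv (Equiv.mulRight lam) _ _ fun m => ?_
        rw [Equiv.coe_mulRight, mul_inv_cancel_right, MonoidHom.mul_apply, Units.val_mul, ← mul_assoc,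
          ← hlβ]
        rfl
      rw [← hl, hr']
    have h2 : ∀ (f : (C →* ℂˣ) → ℕ) (m : C →* ℂˣ),
        classInner (∑ l : C →* ℂˣ, (f l : ℂ) • (linChar l : C → ℂ)) (linChar m : C → ℂ) = (f m : ℂ) := by
      intro f m
      rw [classInner_sum_left, Finset.sum_eq_single m]
      · rw [classInner_smul_left, classInner_self, mul_one]
      · intro l _ hl
        rw [classInner_smul_left, classInner_of_ne (fun h => hl (linChar_injective h)), mul_zero]
      · simp
    have h3 := h2 (fun l => M (Ek.symm l)) (l ^ k)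
    rw [h1, h2 (fun l => M (l * lam⁻¹)), Nat.cast_inj] at h3
    rw [h3, show l ^ k = Ek l from rfl, Ek.symm_apply_apply]
  obtain ⟨ν, hν⟩ := concentrated hp hexp hd hd0 hkord M hMd lam⁻¹ hrel
  have hxval : ‖(χ : G → ℂ) x‖ = d := by
    have h1 := hsum ⟨x, Subgroup.mem_zpowers x⟩
    rw [Finset.sum_eq_single ν (fun l _ hl => by
      rw [show M l = 0 from by_contra fun h => hl (hν l h)]; simp) (by simp)] at h1
    have hMν : M ν = d := by
      rw [← hMd, Finset.sum_eq_single ν (fun l _ hl => by_contra fun h => hl (hν l h)) (by simp)]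
    rw [h1, hMν, norm_mul, Complex.norm_natCast,
      norm_eq_one_of_pow_orderOf (g := x) (z := ((ν ⟨x, Subgroup.mem_zpowers x⟩ : ℂˣ) : ℂ)) ?_,
      mul_one]
    rw [← Units.val_pow_eq_pow_val, ← MonoidHom.pow_apply, hx, hexp ν, MonoidHom.one_apply,
      Units.val_one]
  obtain ⟨n, ρ, hρ⟩ := isCharacter_coe χ
  have hn : n = d := by
    have h1 : ρ.character 1 = (n : ℂ) := by rw [Representation.char_one]; simp
    rw [hρ, hd1] at h1
    exact_mod_cast h1.symm
  rw [← hρ] at hxval ⊢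
  obtain ⟨w, hw⟩ : ∃ w : ℂ, ρ x = w • 1 :=
    ⟨_, rep_eq_smul_of_norm_character_eq ρ (by omega) (by rw [hxval, hn])⟩
  have h1 : ρ x * ρ g = ρ g * ρ x := by simp [hw]
  have h2 : ρ ⁅x, g⁆ = 1 := by
    rw [commutatorElement_def, map_mul, map_mul, map_mul, h1, mul_assoc (ρ g), ← map_mul ρ x,
      mul_inv_cancel, map_one, mul_one, ← map_mul, mul_inv_cancel, map_one]
  simp [Representation.character, h2]

end CfsgLib.Chars.CoprimeCentral
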