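import Cfsg.Agent.Chars.Basic
import Mathlib.GroupTheory.QuotientGroup.Basic
import Mathlib.Analysis.Real.Sqrt

/-!
# Feit's degree bound for an abelian subgroup with isolated centralizers

If distinct conjugates of the abelian subgroup `H` never both meet the centralizer of a non-central
element and `H` meets the centre trivially, an irreducible character `χ` non-trivial on `H` has
`χ(1) ^ 2 > |H| * c ^ 2` where `c` is the multiplicity of the principal character on `H`.
-/

set_option autoImplicit false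

namespace CfsgLib.Chars.FeitBound

open Cfsg CfsgLib.Chars
open scoped ComplexConjugate

variable {G : Type*} [Group G] [Fintype G] (H : Subgroup G) [Fintype H]

/-- The average of a function over a left coset of `H`. -/
noncomputable def cosetAvg (f : G → ℂ) (g : G) : ℂ :=
  (Nat.card H : ℂ)⁻¹ * ∑ h : H, f (g * h)

theorem cosetAvg_mul (f : G → ℂ) (g : G) (k : H) : cosetAvg H f (g * k) = cosetAvg H f g := by
  simp only [cosetAvg]
  congr 1
  exact Fintype.sum_equiv (Equiv.mulLeft k) _ _ fun h => by simp [mul_assoc]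

theorem classInner_self_eq {K : Type*} [Group K] [Fintype K] (f : K → ℂ) :
    classInner f f = (((∑ g : K, ‖f g‖ ^ 2) / Nat.card K : ℝ) : ℂ) := by
  rw [classInner, Complex.ofReal_div, Complex.ofReal_sum, Complex.ofReal_natCast, inv_mul_eq_div]
  congr 1
  exact Finset.sum_congr rfl fun g _ => by rw [Complex.mul_conj', Complex.ofReal_pow]

/-- The hypothesis: `C(g)` meets at most one conjugate of `H`, for non-central `g`. -/
def Isolated : Prop :=
  ∀ g : G, g ∉ Subgroup.center G → ∀ a b : G,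
    Subgroup.centralizer ({g} : Set G) ⊓ H.map (MulAut.conj a).toMonoidHom ≠ ⊥ →
    Subgroup.centralizer ({g} : Set G) ⊓ H.map (MulAut.conj b).toMonoidHom ≠ ⊥ →
    H.map (MulAut.conj a).toMonoidHom = H.map (MulAut.conj b).toMonoidHom

variable {H}

omit [Fintype G] [Fintype H] in
theorem mem_normalizer_of_commute (hI : Isolated H) {g h k x : G} (hg : g ∉ Subgroup.center G)
    (hh : h ∈ H) (hh1 : h ≠ 1) (hgh : g * h = h * g) (hk : k ∈ H) (hk1 : k ≠ 1)
    (hgk : g * (x * k * x⁻¹) = (x * k * x⁻¹) * g) :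
    x ∈ Subgroup.normalizer (H : Set G) := by
  have h1 : Subgroup.centralizer ({g} : Set G) ⊓ H.map (MulAut.conj (1 : G)).toMonoidHom ≠ ⊥ := by
    rw [Subgroup.ne_bot_iff_exists_ne_one]
    refine ⟨⟨h, Subgroup.mem_centralizer_singleton_iff.2 hgh.symm, h, hh, by simp⟩, ?_⟩
    exact fun h0 => hh1 (congrArg Subtype.val h0)
  have h2 : Subgroup.centralizer ({g} : Set G) ⊓ H.map (MulAut.conj x).toMonoidHom ≠ ⊥ := by
    rw [Subgroup.ne_bot_iff_exists_ne_one]
    refine ⟨⟨x * k * x⁻¹, Subgroup.mem_centralizer_singleton_iff.2 hgk.symm, k, hk, by simp⟩, ?_⟩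
    intro h0
    apply hk1
    have h3 : x * k * x⁻¹ = 1 := congrArg Subtype.val h0
    simpa [mul_inv_eq_one] using h3
  have heq := hI g hg 1 x h1 h2
  have h1map : H.map (MulAut.conj (1 : G)).toMonoidHom = H := by
    refine Subgroup.ext fun y => ?_
    simp
  rw [h1map] at heq
  refine Subgroup.mem_normalizer_iff.2 fun y => ⟨fun hy => ?_, fun hy => ?_⟩
  · rw [heq]; exact ⟨y, hy, by simp⟩
  · rw [heq] at hy
    obtain ⟨z, hz, hzy⟩ := hy
    have : z = y := by simpa using hzy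
    exact this ▸ hz

omit [Fintype G] [Fintype H] in
theorem centralizer_le_normalizer' (hI : Isolated H) (hZ : H ⊓ Subgroup.center G = ⊥) {h x : G}
    (hh : h ∈ H) (hh1 : h ≠ 1) (hx : x * h = h * x) : x ∈ Subgroup.normalizer (H : Set G) := by
  have hnc : h ∉ Subgroup.center G := fun hc => hh1 (Subgroup.mem_bot.1 (hZ ▸ ⟨hh, hc⟩))
  refine mem_normalizer_of_commute hI hnc hh hh1 rfl hh hh1 ?_
  rw [hx, mul_inv_cancel_right]

/-- On an element of the normalizer centralizing no non-trivial element of `H` a class function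
equals its average. -/
theorem cosetAvg_eq_of_free {f : G → ℂ} (hf : IsClassFunction G f) {g : G}
    (hg : g ∈ Subgroup.normalizer (H : Set G))
    (hfree : ∀ h ∈ H, g * h = h * g → h = 1) : cosetAvg H f g = f g := by
  let φ : H → H := fun h =>
    ⟨(g⁻¹ * h * g) * (h : G)⁻¹, H.mul_mem (((Subgroup.mem_normalizer_iff''.1 hg) h).1 h.2) (H.inv_mem h.2)⟩
  have hinj : Function.Injective φ := by
    intro a b hab
    have h1 : g⁻¹ * a * g * (a : G)⁻¹ = g⁻¹ * b * g * (b : G)⁻¹ := congrArg Subtype.val hab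
    have h2 : g * ((a : G)⁻¹ * b) = ((a : G)⁻¹ * b) * g := by
      calc g * ((a : G)⁻¹ * b) = (a : G)⁻¹ * (g * (g⁻¹ * a * g * (a : G)⁻¹)) * b := by group
        _ = (a : G)⁻¹ * (g * (g⁻¹ * b * g * (b : G)⁻¹)) * b := by rw [h1]
        _ = ((a : G)⁻¹ * b) * g := by group
    exact Subtype.ext (inv_mul_eq_one.1 (hfree _ (H.mul_mem (H.inv_mem a.2) b.2) h2))
  have hval : ∀ k : H, f (g * k) = f g := by
    intro k
    obtain ⟨h, rfl⟩ := Finite.injective_iff_surjective.1 hinj k
    rw [show g * (φ h : G) = (h : G) * g * (h : G)⁻¹ by simp only [φ]; group]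
    exact hf g h
  rw [cosetAvg, Finset.sum_congr rfl fun k _ => hval k, Finset.sum_const, Finset.card_univ,
    nsmul_eq_mul, ← Nat.card_eq_fintype_card, ← mul_assoc, inv_mul_cancel₀ natCard_ne_zero, one_mul]

open Classical in
/-- The squared norm on the normalizer exceeds that of the average by its order. -/
theorem norm_sq_normalizer (χ : IrrCharacter G) (hker : ∃ h ∈ H, (χ : G → ℂ) h ≠ (χ : G → ℂ) 1)
    (N : Subgroup G) (hHN : H ≤ N) [(H.subgroupOf N).Normal] [Fintype N] :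
    (Nat.card N : ℝ) + ∑ n : N, ‖cosetAvg H (χ : G → ℂ) n‖ ^ 2 ≤
      ∑ n : N, ‖(χ : G → ℂ) n‖ ^ 2 := by
  haveI : Fintype (H.subgroupOf N) := Fintype.ofFinite _
  obtain ⟨c, hc, -⟩ := exists_nat_coeff (isCharacter_restrict (isCharacter_coe χ) N)
  have hfun : ∀ n : N, (χ : G → ℂ) n = ∑ θ : IrrCharacter N, (c θ : ℂ) * (θ : N → ℂ) n := fun n => by
    have := congrFun hc n
    simpa using this
  let a : IrrCharacter N → ℕ := fun θ => if H.subgroupOf N ≤ charKer (θ : N → ℂ) then c θ else 0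
  have havg : ∀ n : N, cosetAvg H (χ : G → ℂ) n = ∑ θ : IrrCharacter N, (a θ : ℂ) * (θ : N → ℂ) n := by
    intro n
    have h1 : ∀ h : H.subgroupOf N, (χ : G → ℂ) ((n : G) * (h : N)) =
        ∑ θ : IrrCharacter N, (c θ : ℂ) * (θ : N → ℂ) (n * h) := fun h => hfun (n * h)
    have he : ∑ h : H, (χ : G → ℂ) ((n : G) * h) =
        ∑ h : H.subgroupOf N, (χ : G → ℂ) ((n : G) * (h : N)) :=
      (Fintype.sum_equiv (Subgroup.subgroupOfEquivOfLe hHN).toEquiv
        _ _ fun h => rfl).symm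
    rw [cosetAvg, he, Finset.sum_congr rfl fun h _ => h1 h, Finset.sum_comm, Finset.mul_sum]
    refine Finset.sum_congr rfl fun θ _ => ?_
    rw [← Finset.mul_sum]
    by_cases hθ : H.subgroupOf N ≤ charKer (θ : N → ℂ)
    · have hcomm : ∀ h : H.subgroupOf N, (θ : N → ℂ) (n * h) = (θ : N → ℂ) n := fun h => by
        rw [classFunction_mul_comm (isClassFunction_coe θ), map_mul_of_mem_charKer (hθ h.2)]
      rw [Finset.sum_congr rfl fun h _ => hcomm h, Finset.sum_const, Finset.card_univ,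
        nsmul_eq_mul, ← Nat.card_eq_fintype_card,
        Nat.card_congr (Subgroup.subgroupOfEquivOfLe hHN).toEquiv]
      have h0 : (Nat.card H : ℂ) ≠ 0 := natCard_ne_zero
      simp only [a, if_pos hθ]
      field_simp
    · rw [sum_coset_eq_zero _ θ hθ]
      simp [a, hθ]
  have hsq : ∀ (d : IrrCharacter N → ℕ) (f : N → ℂ),
      (∀ n : N, f n = ∑ θ : IrrCharacter N, (d θ : ℂ) * (θ : N → ℂ) n) →
      ∑ n : N, ‖f n‖ ^ 2 = (Nat.card N : ℝ) * ((∑ θ : IrrCharacter N, d θ * d θ : ℕ) : ℝ) := by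
    intro d f hf
    have h1 : f = ∑ θ : IrrCharacter N, (d θ : ℂ) • (θ : N → ℂ) := funext fun n => by
      simp [hf n]
    have hcf : IsClassFunction N f := fun x y => by
      rw [hf, hf]
      exact Finset.sum_congr rfl fun θ _ => by rw [isClassFunction_coe θ x y]
    have hd : ∀ θ : IrrCharacter N, classInner f (θ : N → ℂ) = (d θ : ℂ) := fun θ => by
      rw [h1, classInner_sum_smul]
    have h2 : classInner f f = ((∑ θ : IrrCharacter N, d θ * d θ : ℕ) : ℂ) := by
      rw [classInner_eq_sum hcf]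
      push_cast
      exact Finset.sum_congr rfl fun θ _ => by rw [hd, map_natCast]
    rw [classInner_self_eq, ← Complex.ofReal_natCast, Complex.ofReal_inj,
      div_eq_iff (Nat.cast_ne_zero.2 Nat.card_pos.ne')] at h2
    rw [h2, mul_comm]
  have hA := hsq a (fun n : N => cosetAvg H (χ : G → ℂ) n) havg
  have hB := hsq c (fun n : N => (χ : G → ℂ) n) hfun
  beta_reduce at hA hB
  rw [hA, hB, ← mul_one_add]
  refine mul_le_mul_of_nonneg_left ?_ (Nat.cast_nonneg _)
  have hex : ∃ θ : IrrCharacter N, c θ ≠ 0 ∧ ¬ H.subgroupOf N ≤ charKer (θ : N → ℂ) := by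
    by_contra hall
    obtain ⟨h, hh, hne⟩ := hker
    apply hne
    have hhN : h ∈ N := hHN hh
    refine (hfun ⟨h, hhN⟩).trans (Eq.trans ?_ (hfun 1).symm)
    refine Finset.sum_congr rfl fun θ _ => ?_
    by_cases hθ : c θ = 0
    · simp [hθ]
    · rw [map_eq_map_one_of_mem_charKer
        ((not_not.1 fun h0 => hall ⟨θ, hθ, h0⟩) (show (⟨h, hhN⟩ : N) ∈ H.subgroupOf N from hh))]
  obtain ⟨θ₀, hθc, hθk⟩ := hex
  have h2 : 1 + ∑ θ, a θ * a θ ≤ ∑ θ, c θ * c θ := by
    rw [← Finset.add_sum_erase _ _ (Finset.mem_univ θ₀),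
      ← Finset.add_sum_erase (Finset.univ) (fun θ => c θ * c θ) (Finset.mem_univ θ₀)]
    have h3 : ∀ θ ∈ Finset.univ.erase θ₀, a θ * a θ ≤ c θ * c θ := fun θ _ => by
      simp only [a]; split_ifs <;> simp
    have h4 := Finset.sum_le_sum h3
    have h5 : 0 < c θ₀ * c θ₀ := Nat.mul_pos (Nat.pos_of_ne_zero hθc) (Nat.pos_of_ne_zero hθc)
    simp only [a, if_neg hθk] at h4 ⊢
    omega
  exact_mod_cast h2

/-- **Feit's bound**, first part. -/
theorem card_mul_sq_lt (hab : ∀ a ∈ H, ∀ b ∈ H, a * b = b * a)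
    (hZ : H ⊓ Subgroup.center G = ⊥) (hI : Isolated H) (χ : IrrCharacter G)
    (hker : ∃ h ∈ H, (χ : G → ℂ) h ≠ (χ : G → ℂ) 1) (m : ℕ)
    (hm : classInner (fun h : H => (χ : G → ℂ) h) (fun _ => 1) = (m : ℂ)) :
    Nat.card H * m ^ 2 < charDegree (χ : G → ℂ) ^ 2 := by
  classical
  have hd0 : 0 < charDegree (χ : G → ℂ) := charDegree_pos χ
  rcases Nat.eq_zero_or_pos m with rfl | hm0
  · simp [hd0.ne', Nat.pow_pos hd0]
  obtain ⟨h₀, hh₀, hne₀⟩ := id hker
  have hh₀1 : h₀ ≠ 1 := fun h => hne₀ (h ▸ rfl)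
  set N := Subgroup.normalizer (H : Set G) with hN
  haveI : Fintype N := Fintype.ofFinite _
  set d : ℝ := (charDegree (χ : G → ℂ) : ℝ) with hd
  have hav1 : cosetAvg H (χ : G → ℂ) 1 = (m : ℂ) := by
    rw [← hm, cosetAvg, classInner]
    simp
  let sN : Finset G := Finset.univ.filter (· ∈ N)
  let sZ : Finset G := Finset.univ.filter (· ∈ Subgroup.center G)
  let sX : Finset G := Finset.univ.filter fun g =>
    g ∉ Subgroup.center G ∧ ∃ h ∈ H, h ≠ 1 ∧ g * h = h * g
  let sF : Finset G := sN.filter fun g => ∀ h ∈ H, g * h = h * g → h = 1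
  let q : G → ℝ := fun g => ‖(χ : G → ℂ) g‖ ^ 2
  let r : G → ℝ := fun g => ‖cosetAvg H (χ : G → ℂ) g‖ ^ 2
  have hXN : ∀ g ∈ sX, g ∈ sN := fun g hg => by
    obtain ⟨-, -, h, hh, hh1, hgh⟩ := Finset.mem_filter.1 hg
    exact Finset.mem_filter.2 ⟨Finset.mem_univ _, centralizer_le_normalizer' hI hZ hh hh1 hgh⟩
  have hcN : ∀ z ∈ Subgroup.center G, z ∈ N := fun z hz =>
    centralizer_le_normalizer' hI hZ hh₀ hh₀1 (Subgroup.mem_center_iff.1 hz h₀).symm
  -- the partition of the normalizer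
  have hsplit : ∑ g ∈ sN, q g = ∑ g ∈ sX, q g + ∑ g ∈ sZ, q g + ∑ g ∈ sF, q g := by
    rw [← Finset.sum_union, ← Finset.sum_union]
    · refine Finset.sum_congr (Finset.ext fun g => ?_) fun _ _ => rfl
      simp only [Finset.mem_union]
      constructor
      · intro hg
        by_cases hf : ∀ h ∈ H, g * h = h * g → h = 1
        · exact Or.inr (Finset.mem_filter.2 ⟨hg, hf⟩)
        · left
          by_cases hz : g ∈ Subgroup.center G
          · exact Or.inr (Finset.mem_filter.2 ⟨Finset.mem_univ _, hz⟩)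
          · push Not at hf
            obtain ⟨h, hh, hgh, hh1⟩ := hf
            exact Or.inl (Finset.mem_filter.2 ⟨Finset.mem_univ _, hz, h, hh, hh1, hgh⟩)
      · rintro ((hg | hg) | hg)
        · exact hXN g hg
        · exact Finset.mem_filter.2 ⟨Finset.mem_univ _, hcN g (Finset.mem_filter.1 hg).2⟩
        · exact (Finset.mem_filter.1 hg).1
    · rw [Finset.disjoint_left]
      intro g hg hf
      have hf' := (Finset.mem_filter.1 hf).2
      rcases Finset.mem_union.1 hg with hg | hg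
      · obtain ⟨-, -, h, hh, hh1, hgh⟩ := Finset.mem_filter.1 hg
        exact hh1 (hf' h hh hgh)
      · exact hh₀1 (hf' h₀ hh₀ (Subgroup.mem_center_iff.1 (Finset.mem_filter.1 hg).2 h₀).symm)
    · rw [Finset.disjoint_left]
      exact fun g hg hg' => (Finset.mem_filter.1 hg).2.1 (Finset.mem_filter.1 hg').2
  have hqZ : ∑ g ∈ sZ, q g = (sZ.card : ℝ) * d ^ 2 := by
    rw [Finset.sum_congr rfl (g := fun _ => d ^ 2) fun z hz => ?_, Finset.sum_const, nsmul_eq_mul]
    show ‖(χ : G → ℂ) z‖ ^ 2 = d ^ 2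
    rw [norm_map_of_mem_center χ (Finset.mem_filter.1 hz).2, ← coe_charDegree, Complex.norm_natCast]
  -- the conjugates of `sX`
  have hG : (sZ.card : ℝ) * d ^ 2 + (N.index : ℝ) * ∑ g ∈ sX, q g ≤ ∑ g : G, q g := by
    haveI : Fintype (G ⧸ N) := Fintype.ofFinite _
    let T : G ⧸ N → Finset G := fun x => sX.image fun g => x.out * g * x.out⁻¹
    have hTsum : ∀ x, ∑ g ∈ T x, q g = ∑ g ∈ sX, q g := fun x => by
      rw [Finset.sum_image fun a _ b _ hab => by simpa using hab]
      refine Finset.sum_congr rfl fun g _ => ?_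
      show ‖(χ : G → ℂ) (x.out * g * x.out⁻¹)‖ ^ 2 = ‖(χ : G → ℂ) g‖ ^ 2
      rw [isClassFunction_coe χ]
    have hdisj : (↑(Finset.univ : Finset (G ⧸ N)) : Set (G ⧸ N)).PairwiseDisjoint T := by
      intro x _ y _ hxy
      rw [Function.onFun, Finset.disjoint_left]
      intro w hwx hwy
      obtain ⟨g, hg, rfl⟩ := Finset.mem_image.1 hwx
      obtain ⟨g', hg', hgg'⟩ := Finset.mem_image.1 hwy
      obtain ⟨-, hgz, h, hh, hh1, hgh⟩ := Finset.mem_filter.1 hg
      obtain ⟨-, -, k, hk, hk1, hgk⟩ := Finset.mem_filter.1 hg'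
      apply hxy
      have hmem : x.out⁻¹ * y.out ∈ N := by
        refine mem_normalizer_of_commute hI hgz hh hh1 hgh hk hk1 ?_
        have hge : g = x.out⁻¹ * y.out * g' * (x.out⁻¹ * y.out)⁻¹ := by
          calc g = x.out⁻¹ * (x.out * g * x.out⁻¹) * x.out := by group
            _ = x.out⁻¹ * (y.out * g' * y.out⁻¹) * x.out := by rw [hgg']
            _ = _ := by group
        rw [hge]
        calc x.out⁻¹ * y.out * g' * (x.out⁻¹ * y.out)⁻¹ *
              (x.out⁻¹ * y.out * k * (x.out⁻¹ * y.out)⁻¹)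
            = x.out⁻¹ * y.out * (g' * k) * (x.out⁻¹ * y.out)⁻¹ := by group
          _ = x.out⁻¹ * y.out * (k * g') * (x.out⁻¹ * y.out)⁻¹ := by rw [hgk]
          _ = _ := by group
      rw [← QuotientGroup.out_eq' x, ← QuotientGroup.out_eq' y]
      exact QuotientGroup.eq.2 hmem
    have hle : ∑ g ∈ sZ, q g + ∑ g ∈ Finset.univ.biUnion T, q g ≤ ∑ g : G, q g := by
      rw [← Finset.sum_union]
      · exact Finset.sum_le_sum_of_subset_of_nonneg (Finset.subset_univ _)
          fun g _ _ => sq_nonneg _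
      · rw [Finset.disjoint_left]
        intro w hw hwT
        obtain ⟨x, -, hx⟩ := Finset.mem_biUnion.1 hwT
        obtain ⟨g, hg, rfl⟩ := Finset.mem_image.1 hx
        refine (Finset.mem_filter.1 hg).2.1 ?_
        have h1 := (inferInstance : (Subgroup.center G).Normal).conj_mem _
          (Finset.mem_filter.1 hw).2 x.out⁻¹
        simpa [mul_assoc] using h1
    rw [Finset.sum_biUnion hdisj, Finset.sum_congr rfl fun x _ => hTsum x, Finset.sum_const,
      Finset.card_univ, nsmul_eq_mul, ← Nat.card_eq_fintype_card, ← N.index_eq_card, hqZ] at hle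
    exact hle
  -- on the free part
  have hF : ∑ g ∈ sF, q g + (sZ.card : ℝ) * (Nat.card H : ℝ) * (m : ℝ) ^ 2 ≤ ∑ g ∈ sN, r g := by
    have hFq : ∑ g ∈ sF, q g = ∑ g ∈ sF, r g := Finset.sum_congr rfl fun g hg => by
      obtain ⟨hgN, hgf⟩ := Finset.mem_filter.1 hg
      show _ = ‖cosetAvg H (χ : G → ℂ) g‖ ^ 2
      rw [cosetAvg_eq_of_free (isClassFunction_coe χ) (Finset.mem_filter.1 hgN).2 hgf]
    let sZH : Finset G := (sZ ×ˢ (Finset.univ : Finset H)).image fun zh => zh.1 * (zh.2 : G)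
    have hZH : ∀ w ∈ sZH, w ∈ sN ∧ w * h₀ = h₀ * w ∧ r w = (m : ℝ) ^ 2 := by
      intro w hw
      obtain ⟨⟨z, h⟩, hzh, rfl⟩ := Finset.mem_image.1 hw
      have hz : z ∈ Subgroup.center G := (Finset.mem_filter.1 (Finset.mem_product.1 hzh).1).2
      refine ⟨Finset.mem_filter.2 ⟨Finset.mem_univ _, N.mul_mem (hcN z hz)
        (Subgroup.le_normalizer h.2)⟩, ?_, ?_⟩
      · dsimp only
        rw [mul_assoc, hab _ h.2 _ hh₀, ← mul_assoc, ← Subgroup.mem_center_iff.1 hz h₀, mul_assoc]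
      · show ‖cosetAvg H (χ : G → ℂ) (z * h)‖ ^ 2 = _
        rw [cosetAvg_mul]
        have h1 : cosetAvg H (χ : G → ℂ) z =
            (χ : G → ℂ) z / (χ : G → ℂ) 1 * cosetAvg H (χ : G → ℂ) 1 := by
          simp only [cosetAvg, one_mul, Finset.mul_sum]
          refine Finset.sum_congr rfl fun k _ => ?_
          rw [map_mul_of_mem_center χ hz]
          ring
        rw [h1, norm_mul, norm_div, norm_map_of_mem_center χ hz,
          div_self (norm_ne_zero_iff.2 (map_one_ne_zero χ)), one_mul, hav1, Complex.norm_natCast]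
    have hcard : sZH.card = sZ.card * Nat.card H := by
      rw [Finset.card_image_of_injOn, Finset.card_product, Finset.card_univ,
        Nat.card_eq_fintype_card]
      rintro ⟨z, h⟩ hzh ⟨z', h'⟩ hzh' heq
      simp only [Finset.coe_product, Set.mem_prod, Finset.mem_coe] at hzh hzh'
      have h1 : z'⁻¹ * z = (h' : G) * (h : G)⁻¹ := by
        rw [eq_mul_inv_iff_mul_eq, mul_assoc, show z * (h : G) = z' * h' from heq,
          inv_mul_cancel_left]
      have h2 : (h' : G) * (h : G)⁻¹ ∈ H ⊓ Subgroup.center G :=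
        ⟨H.mul_mem h'.2 (H.inv_mem h.2), h1 ▸ (Subgroup.center G).mul_mem
          ((Subgroup.center G).inv_mem (Finset.mem_filter.1 hzh'.1).2)
          (Finset.mem_filter.1 hzh.1).2⟩
      rw [hZ, Subgroup.mem_bot] at h2
      rw [h2, inv_mul_eq_one] at h1
      exact Prod.ext h1.symm (Subtype.ext (mul_inv_eq_one.1 h2).symm)
    have hdisj : Disjoint sF sZH := by
      rw [Finset.disjoint_left]
      exact fun g hg hg' => hh₀1 ((Finset.mem_filter.1 hg).2 h₀ hh₀ (hZH g hg').2.1)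
    have hle : ∑ g ∈ sF, r g + ∑ g ∈ sZH, r g ≤ ∑ g ∈ sN, r g := by
      rw [← Finset.sum_union hdisj]
      refine Finset.sum_le_sum_of_subset_of_nonneg ?_ fun g _ _ => sq_nonneg _
      exact Finset.union_subset (Finset.filter_subset _ _) fun g hg => (hZH g hg).1
    rw [Finset.sum_congr (s₁ := sZH) rfl fun g hg => (hZH g hg).2.2, Finset.sum_const,
      nsmul_eq_mul, hcard, Nat.cast_mul, ← hFq] at hle
    exact hle
  have hnorm : (Nat.card N : ℝ) + ∑ g ∈ sN, r g ≤ ∑ g ∈ sN, q g := by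
    haveI : (H.subgroupOf N).Normal := Subgroup.normal_in_normalizer
    have h1 := norm_sq_normalizer χ hker N Subgroup.le_normalizer
    rw [← Finset.sum_subtype sN (p := (· ∈ N)) (by simp [sN]) r,
      ← Finset.sum_subtype sN (p := (· ∈ N)) (by simp [sN]) q] at h1
    exact h1
  have htot : ∑ g : G, q g = (Nat.card G : ℝ) := by
    have h1 := classInner_self_eq (χ : G → ℂ)
    rw [classInner_self, ← Complex.ofReal_one, Complex.ofReal_inj,
      eq_div_iff (Nat.cast_ne_zero.2 Nat.card_pos.ne'), one_mul] at h1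
    exact h1.symm
  have hcardG : (Nat.card G : ℝ) = (N.index : ℝ) * (Nat.card N : ℝ) := by
    rw [← N.card_mul_index, Nat.cast_mul, mul_comm]
  have hI0 : (0 : ℝ) ≤ (N.index : ℝ) := Nat.cast_nonneg _
  have hZpos : (0 : ℝ) < (sZ.card : ℝ) := Nat.cast_pos.2 (Finset.card_pos.2 ⟨1, by simp [sZ]⟩)
  have hX : (Nat.card N : ℝ) + (sZ.card : ℝ) * (Nat.card H : ℝ) * (m : ℝ) ^ 2 -
      (sZ.card : ℝ) * d ^ 2 ≤ ∑ g ∈ sX, q g := by linarith [hsplit, hqZ, hF, hnorm]
  have hmain : d ^ 2 + (N.index : ℝ) * ((Nat.card H : ℝ) * (m : ℝ) ^ 2) ≤ (N.index : ℝ) * d ^ 2 := by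
    have h1 := mul_le_mul_of_nonneg_left hX hI0
    refine le_of_mul_le_mul_left (a := (sZ.card : ℝ)) ?_ hZpos
    nlinarith [hG, htot, hcardG, h1]
  have hdpos : (0 : ℝ) < d ^ 2 := pow_pos (Nat.cast_pos.2 hd0) 2
  have hIpos : (0 : ℝ) < (N.index : ℝ) := Nat.cast_pos.2 (Nat.pos_of_ne_zero Subgroup.index_ne_zero_of_finite)
  have hfinal : (Nat.card H : ℝ) * (m : ℝ) ^ 2 < d ^ 2 := by
    by_contra hcon
    have := mul_le_mul_of_nonneg_left (not_lt.1 hcon) hIpos.le
    linarith
  rw [hd] at hfinal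
  exact_mod_cast hfinal

/-- **Feit's bound**, second part. -/
theorem card_lt_sq (hab : ∀ a ∈ H, ∀ b ∈ H, a * b = b * a)
    (hZ : H ⊓ Subgroup.center G = ⊥) (hI : Isolated H) (χ : IrrCharacter G)
    (h1 : (χ : G → ℂ) 1 ≠ 1) (hgen : ∀ M : Subgroup G, M.Normal → H ≤ M → M = ⊤) :
    Nat.card H < (1 + charDegree (χ : G → ℂ)) ^ 2 := by
  classical
  have hH1 : IsCharacter H (fun _ => (1 : ℂ)) := isCharacter_of_isIrrCharacter isIrrCharacter_one
  set d := charDegree (χ : G → ℂ) with hd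
  have hd2 : 2 ≤ d := by
    have h0 := charDegree_pos χ
    have h2 : d ≠ 1 := fun hc => h1 ((charDegree_eq_one_iff χ).1 hc)
    omega
  have hΦ : IsCharacter G ((χ : G → ℂ) * fun g => conj ((χ : G → ℂ) g)) :=
    isCharacter_mul (isCharacter_coe χ) (isCharacter_conj (isCharacter_coe χ))
  obtain ⟨c, hc, hc'⟩ := exists_nat_coeff hΦ
  have hfun : ∀ g, (χ : G → ℂ) g * conj ((χ : G → ℂ) g) =
      ∑ φ : IrrCharacter G, (c φ : ℂ) * (φ : G → ℂ) g := fun g => by
    simpa using congrFun hc g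
  choose m hm using fun φ : IrrCharacter G =>
    exists_nat_classInner' (isCharacter_restrict (isCharacter_coe φ) H) hH1
  have hone : ∀ φ : IrrCharacter G, φ ≠ oneChar G → ∃ h ∈ H, (φ : G → ℂ) h ≠ (φ : G → ℂ) 1 := by
    intro φ hne
    by_contra hall
    push Not at hall
    have htop := hgen _ (instNormalCharKer φ) ((le_charKer_iff (isCharacter_coe φ)).2 hall)
    have hφ1 := (commutator_le_charKer_iff φ).1 (htop ▸ le_top)
    refine hne (Subtype.ext ?_)
    rw [oneChar_coe]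
    funext g
    rw [map_eq_map_one_of_mem_charKer (htop.symm ▸ Subgroup.mem_top g : g ∈ charKer (φ : G → ℂ)), hφ1]
  have hcone : c (oneChar G) = 1 := by
    have h2 := hc' (oneChar G)
    have h3 : classInner ((χ : G → ℂ) * fun g => conj ((χ : G → ℂ) g)) (oneChar G : G → ℂ) =
        classInner (χ : G → ℂ) (χ : G → ℂ) := by
      simp [classInner, oneChar_coe]
    rw [h3, classInner_self] at h2
    exact_mod_cast h2.symm
  have hdeg : d * d = ∑ φ : IrrCharacter G, c φ * charDegree (φ : G → ℂ) := by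
    have h2 := hfun 1
    simp only [← coe_charDegree, map_natCast] at h2
    exact_mod_cast h2
  -- the multiplicity of the principal character of H
  have hlow : d ≤ ∑ φ : IrrCharacter G, c φ * m φ := by
    haveI : IsMulCommutative H := ⟨⟨fun a b => Subtype.ext (hab a a.2 b b.2)⟩⟩
    obtain ⟨a, ha, -⟩ := exists_nat_coeff (isCharacter_restrict (isCharacter_coe χ) H)
    have e1 : ((∑ μ : IrrCharacter H, a μ * a μ : ℕ) : ℂ) =
        classInner (fun h : H => (χ : G → ℂ) h) (fun h : H => (χ : G → ℂ) h) := by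
      rw [classInner_eq_sum (isClassFunction_of_isCharacter
        (isCharacter_restrict (isCharacter_coe χ) H))]
      push_cast
      refine Finset.sum_congr rfl fun μ _ => ?_
      have : classInner (fun h : H => (χ : G → ℂ) h) (μ : H → ℂ) = (a μ : ℂ) := by
        conv_lhs => rw [show (fun h : H => (χ : G → ℂ) h) = _ from ha, classInner_sum_smul]
      rw [this, map_natCast]
    have e2 : classInner (fun h : H => (χ : G → ℂ) h) (fun h : H => (χ : G → ℂ) h) =
        ((∑ φ : IrrCharacter G, c φ * m φ : ℕ) : ℂ) := by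
      push_cast
      simp only [← hm, classInner, Finset.mul_sum, map_one, mul_one]
      rw [Finset.sum_comm]
      refine Finset.sum_congr rfl fun h _ => ?_
      rw [hfun h, Finset.mul_sum]
      exact Finset.sum_congr rfl fun φ _ => by ring
    have e3 : d = ∑ μ : IrrCharacter H, a μ := by
      have h2 := congrFun ha 1
      simp only [Finset.sum_apply, Pi.smul_apply, smul_eq_mul,
        map_one_eq_one_of_isMulCommutative, mul_one, OneMemClass.coe_one, ← coe_charDegree] at h2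
      exact_mod_cast h2
    rw [e3, ← show (∑ μ : IrrCharacter H, a μ * a μ) = ∑ φ : IrrCharacter G, c φ * m φ by
      exact_mod_cast e1.trans e2]
    exact Finset.sum_le_sum fun μ _ => Nat.le_mul_self _
  have hm1 : m (oneChar G) = 1 := by
    have h2 := hm (oneChar G)
    simp only [oneChar_coe, classInner, map_one, mul_one, Finset.sum_const, Finset.card_univ,
      nsmul_one, ← Nat.card_eq_fintype_card] at h2
    rw [inv_mul_cancel₀ natCard_ne_zero] at h2
    exact_mod_cast h2.symm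
  set e := Finset.univ.erase (oneChar G) with he
  rw [← Finset.add_sum_erase _ _ (Finset.mem_univ (oneChar G)), hcone, hm1, one_mul] at hlow
  rw [← Finset.add_sum_erase _ _ (Finset.mem_univ (oneChar G)), hcone,
    show charDegree (oneChar G : G → ℂ) = 1 from (charDegree_eq_one_iff _).2 (by simp), one_mul]
    at hdeg
  set s := Real.sqrt (Nat.card H : ℝ) with hs
  have hlt : ∀ φ ∈ e, s * (m φ : ℝ) < (charDegree (φ : G → ℂ) : ℝ) := by
    intro φ hφ
    have h2 := card_mul_sq_lt hab hZ hI φ (hone φ (Finset.mem_erase.1 hφ).1) (m φ) (hm φ)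
    have h3 : (Nat.card H : ℝ) * (m φ : ℝ) ^ 2 < (charDegree (φ : G → ℂ) : ℝ) ^ 2 := by
      exact_mod_cast h2
    refine lt_of_pow_lt_pow_left₀ 2 (Nat.cast_nonneg _) ?_
    rwa [mul_pow, hs, Real.sq_sqrt (Nat.cast_nonneg _)]
  obtain ⟨φ₀, hφ₀, hφ₀c⟩ : ∃ φ ∈ e, c φ ≠ 0 := by
    by_contra hall
    push Not at hall
    rw [Finset.sum_eq_zero fun φ hφ => by rw [hall φ hφ, zero_mul]] at hdeg
    nlinarith [hdeg, hd2]
  have hsum : s * (∑ φ ∈ e, (c φ : ℝ) * (m φ : ℝ)) <
      ∑ φ ∈ e, (c φ : ℝ) * (charDegree (φ : G → ℂ) : ℝ) := by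
    rw [Finset.mul_sum]
    refine Finset.sum_lt_sum (fun φ hφ => ?_) ⟨φ₀, hφ₀, ?_⟩
    · have := mul_le_mul_of_nonneg_left (hlt φ hφ).le (Nat.cast_nonneg (α := ℝ) (c φ))
      linarith
    · have := mul_lt_mul_of_pos_left (hlt φ₀ hφ₀)
        (Nat.cast_pos.2 (Nat.pos_of_ne_zero hφ₀c) : (0 : ℝ) < (c φ₀ : ℝ))
      linarith
  have hlow' : (d : ℝ) ≤ 1 + ∑ φ ∈ e, (c φ : ℝ) * (m φ : ℝ) := by exact_mod_cast hlow
  have hdeg' : (d : ℝ) * d = 1 + ∑ φ ∈ e, (c φ : ℝ) * (charDegree (φ : G → ℂ) : ℝ) := by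
    exact_mod_cast hdeg
  have hs0 : 0 ≤ s := Real.sqrt_nonneg _
  have hd2' : (2 : ℝ) ≤ d := by exact_mod_cast hd2
  have hs1 : s < (d : ℝ) + 1 := by
    by_contra hcon
    have hcon' := not_lt.1 hcon
    nlinarith [hsum, hlow', hdeg', hs0, hd2']
  have hfin : (Nat.card H : ℝ) < (1 + (d : ℝ)) ^ 2 := by
    rw [← Real.sq_sqrt (Nat.cast_nonneg (Nat.card H) : (0 : ℝ) ≤ _), ← hs]
    exact pow_lt_pow_left₀ (by linarith) hs0 two_ne_zero
  exact_mod_cast hfin

end CfsgLib.Chars.FeitBound
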